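import Cfsg.Agent.H848.Rl.Red21
import Cfsg.Agent.H592.Rl.Classes9
import Cfsg.Agent.H803.Rl.UNot
import Cfsg.Agent.H294.Rl.Size

/-!
# S3691, row `PSL_n(q)`: PSL-16d, `(q, n) = (4, 10)`, given the orders of the residual subgroups of `SL_9(4)` (helper848)
-/

set_option autoImplicit false

namespace Cfsg.Agent.H848.Rl

open Cfsg Cfsg.Geo Matrix Module Cfsg.Agent.H454.Reg
open Cfsg.Agent.H851.Rl (pg Pt Big Ext Uni GPPS gpps_of list10 ext_dvd' sim_even qsim_even block_card point_of not_sl_le)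
open Cfsg.Agent.H95.Rl (irr_of red_of)
open Cfsg.Agent.H728.DghpNum (Ppd)
open scoped MatrixGroups

universe u

section sl

variable {F : Type} [Field F] [Fintype F] {n : ℕ}

theorem card_inf_sl (S : Subgroup (GL (Fin n) F)) :
    ∃ d, d ∣ Fintype.card F - 1 ∧ Nat.card S = d * Nat.card (S ⊓ specialLinear (Fin n) F : Subgroup (GL (Fin n) F)) := by
  classical
  have hN : (specialLinear (Fin n) F).Normal := by unfold specialLinear; infer_instance
  refine ⟨(specialLinear (Fin n) F).relIndex S, ?_, ?_⟩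
  · refine (Subgroup.relIndex_dvd_index_of_normal _ _).trans ?_
    have h1 : (specialLinear (Fin n) F).index ∣ Nat.card Fˣ := by
      unfold specialLinear
      rw [Subgroup.index_ker]
      exact Subgroup.card_subgroup_dvd_card _
    rwa [Nat.card_units, Nat.card_eq_fintype_card] at h1
  · have h1 := Subgroup.card_mul_index ((specialLinear (Fin n) F).subgroupOf S)
    have h2 : Nat.card ((specialLinear (Fin n) F).subgroupOf S) =
        Nat.card (S ⊓ specialLinear (Fin n) F : Subgroup (GL (Fin n) F)) := by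
      rw [← Subgroup.inf_subgroupOf_left]
      exact Nat.card_congr (Subgroup.subgroupOfEquivOfLe inf_le_left).toEquiv
    rw [h2] at h1
    rw [← h1, mul_comm]
    rfl

end sl

section num

theorem ord_41 : orderOf ((2 : ℕ) : ZMod 41) = 20 :=
  H951.Rl.ord_of_prim le_rfl (by norm_num) (by norm_num) (by intro i h1 h2; interval_cases i <;> norm_num)

theorem ord_43 : orderOf ((2 : ℕ) : ZMod 43) = 14 :=
  H951.Rl.ord_of_prim le_rfl (by norm_num) (by norm_num) (by intro i h1 h2; interval_cases i <;> norm_num)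

theorem ord_19 : orderOf ((2 : ℕ) : ZMod 19) = 18 :=
  H951.Rl.ord_of_prim le_rfl (by norm_num) (by norm_num) (by intro i h1 h2; interval_cases i <;> norm_num)

theorem ord_73 : orderOf ((2 : ℕ) : ZMod 73) = 9 :=
  H951.Rl.ord_of_prim le_rfl (by norm_num) (by norm_num) (by intro i h1 h2; interval_cases i <;> norm_num)

theorem big41 : Big 2 2 10 41 1 :=
  ⟨Nat.prime_two, by norm_num, ord_41, by norm_num, by norm_num, by norm_num, by norm_num⟩

theorem big43 : Big 2 2 7 43 1 :=
  ⟨Nat.prime_two, by norm_num, ord_43, by norm_num, by norm_num, by norm_num, by norm_num⟩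

theorem ppd4_10 : Ppd 4 10 41 :=
  ⟨by norm_num, H951.Rl.ord_of_prim (by norm_num) (by norm_num) (by norm_num)
    (by intro i h1 h2; interval_cases i <;> norm_num), by norm_num⟩

theorem ppd4_7 : Ppd 4 7 43 :=
  ⟨by norm_num, H951.Rl.ord_of_prim (by norm_num) (by norm_num) (by norm_num)
    (by intro i h1 h2; interval_cases i <;> norm_num), by norm_num⟩

theorem ppd4_9 : Ppd 4 9 19 :=
  ⟨by norm_num, H951.Rl.ord_of_prim (by norm_num) (by norm_num) (by norm_num)
    (by intro i h1 h2; interval_cases i <;> norm_num), by norm_num⟩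

theorem ppd4_9' : Ppd 4 9 73 :=
  ⟨by norm_num, H951.Rl.ord_of_prim (by norm_num) (by norm_num) (by norm_num)
    (by intro i h1 h2; interval_cases i <;> norm_num), by norm_num⟩

theorem prime_dvd_ten {s : ℕ} (hs : s.Prime) (h : s ∣ 10) : s = 2 ∨ s = 5 := by
  rw [show 10 = 2 * 5 by norm_num, hs.dvd_mul, Nat.prime_dvd_prime_iff_eq hs (by norm_num),
    Nat.prime_dvd_prime_iff_eq hs (by norm_num)] at h
  exact h

end num

section

variable {F : Type} [Field F] [Fintype F]

/-- `Out 10`, `n = 10` : the order -/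
theorem card_out10 (hF : Fintype.card F = 4) {R : Subgroup (GL (Fin 10) F)} (h : Cfsg.Agent.H851.Rl.Out 10 R) :
    Nat.card R ≤ 4 ^ 56 := by
  have : Nonempty (Fin 10) := ⟨0⟩
  have hle : ∀ {Z : Subgroup (GL (Fin 10) F)}, R ≤ Z → Nat.card R ≤ Nat.card Z := fun {Z} h =>
    Nat.le_of_dvd Nat.card_pos (Subgroup.card_dvd_of_le h)
  rcases h with ⟨s, K, hs, hs1, -, hK, hR⟩ | ⟨-, -, f, hf, hR⟩ | ⟨-, Q, hQ, hR⟩ | ⟨h, -⟩
  · refine (hle hR).trans ((H951.Rl.card_ext_le hs hK).trans ?_)
    rw [Fintype.card_fin] at hs1 ⊢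
    rw [hF]
    rcases prime_dvd_ten hs hs1 with rfl | rfl <;> norm_num
  · refine (hle hR).trans ((H951.Rl.card_sim_le hf).trans ?_)
    rw [Fintype.card_fin, hF]
  · refine (hle hR).trans ((H951.Rl.card_qsim_le hQ).trans ?_)
    rw [Fintype.card_fin, hF]
    norm_num
  · exact absurd h (by decide)

/-- `Out 10`, `n = 10` : the primes -/
theorem prime_out10 {R : Subgroup (GL (Fin 10) F)} (h : Cfsg.Agent.H851.Rl.Out 10 R) {k r : ℕ}
    (hP : Ppd (Fintype.card F) k r) (hk : 10 < 2 * k) (hodd : Odd k) (h5 : ¬ 5 ∣ k) (hr2 : r ≠ 2) (hr5 : r ≠ 5) :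
    ¬ r ∣ Nat.card R := by
  have : Nonempty (Fin 10) := ⟨0⟩
  intro hd
  rcases h with ⟨s, K, hs, hs1, -, hK, hR⟩ | ⟨-, -, f, hf, hR⟩ | ⟨-, Q, hQ, hR⟩ | ⟨h, -⟩
  · rw [Fintype.card_fin] at hs1
    have h1 : ¬ 2 ∣ k := by
      rw [← even_iff_two_dvd]
      exact Nat.not_even_iff_odd.2 hodd
    rcases ext_dvd' hs hP (by omega) (by rw [Fintype.card_fin]; exact hk) hK hR hd with h2 | h2
    · rcases prime_dvd_ten hs hs1 with rfl | rfl
      · exact hr2 h2
      · exact hr5 h2
    · rcases prime_dvd_ten hs hs1 with rfl | rfl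
      · exact h1 h2
      · exact h5 h2
  · exact Nat.not_even_iff_odd.2 hodd
      (sim_even hP (by omega) (by rw [Fintype.card_fin]; exact hk) hd hf.bilinear hf.nondegenerate hR)
  · exact Nat.not_even_iff_odd.2 hodd (qsim_even hP (by omega) (by rw [Fintype.card_fin]; exact hk) hd hQ hR)
  · exact absurd h (by decide)

/-- the bound for the residual subgroups -/
def Res9 (F : Type) [Field F] [Fintype F] : Prop :=
  ∀ H : Subgroup (GL (Fin 9) F), IsMaximalIn (specialLinear (Fin 9) F) H → InLinearResidualClass H → 19 ∣ Nat.card H →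
    Nat.card H ≤ 235146240

/-- the block -/
theorem card_block9 (hRes : Res9 F) (hF : Fintype.card F = 4) {S : Subgroup (GL (Fin 9) F)} (hne : ¬ specialLinear (Fin 9) F ≤ S)
    (h19 : 19 ∣ Nat.card S) (h43 : 43 ∣ Nat.card S) (h73 : 73 ∣ Nat.card S) : Nat.card S ≤ 3 * 235146240 := by
  have : Nonempty (Fin 9) := ⟨0⟩
  have hF2 : Fintype.card F = 2 ^ 2 := by rw [hF]; norm_num
  have hP7 : Ppd (Fintype.card F) 7 43 := by rw [hF]; exact ppd4_7
  obtain ⟨d, hd, hc⟩ := card_inf_sl S
  rw [hF] at hd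
  have hd3 : d ≤ 3 := Nat.le_of_dvd (by norm_num) hd
  set R := (S ⊓ specialLinear (Fin 9) F : Subgroup (GL (Fin 9) F)) with hRdef
  have key : ∀ {r : ℕ}, r.Prime → ¬ r ∣ 3 → r ∣ Nat.card S → r ∣ Nat.card R := by
    intro r hr hr3 h
    rw [hc, hr.dvd_mul] at h
    rcases h with h | h
    · exact absurd (h.trans hd) hr3
    · exact h
  have g19 := key (by norm_num) (by norm_num) h19
  have g43 := key (by norm_num) (by norm_num) h43
  have g73 := key (by norm_num) (by norm_num) h73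
  have hR : R ≤ specialLinear (Fin 9) F := inf_le_right
  have hneR : ¬ specialLinear (Fin 9) F ≤ R := fun h => hne (h.trans inf_le_left)
  have hle : ∀ {Z : Subgroup (GL (Fin 9) F)}, R ≤ Z → Nat.card R ≤ Nat.card Z := fun {Z} h =>
    Nat.le_of_dvd Nat.card_pos (Subgroup.card_dvd_of_le h)
  have hgoal : Nat.card R ≤ 235146240 := by
    rcases H592.Rl.classes9 (n := 9) (k := 9) (f := 2) (u := 19) (by norm_num) (by norm_num) (by norm_num) le_rfl
      Nat.prime_two hF2 (by norm_num) ord_19 hR hneR g19 with ⟨h, -⟩ | h | ⟨h, -⟩ | ⟨h, -⟩ | ⟨H, hH, hRH, hS⟩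
    · omega
    · exfalso
      rcases h with ⟨s, K, hs, hs1, -, hK, hR⟩ | ⟨h, -⟩ | ⟨h, -⟩ | ⟨-, σ, g, hg, hR⟩
      · rw [Fintype.card_fin] at hs1
        have hs3 : s = 3 := by
          rw [show 9 = 3 ^ 2 by norm_num] at hs1
          exact (Nat.prime_dvd_prime_iff_eq hs (by norm_num)).1 (hs.dvd_of_dvd_pow hs1)
        subst hs3
        rcases ext_dvd' hs hP7 (by omega) (by rw [Fintype.card_fin]; norm_num) hK hR g43 with h2 | h2
        · omega
        · omega
      · exact absurd h (by decide)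
      · exact absurd h (by decide)
      · exact H803.Rl.u_not2 hg hF2 (by norm_num) ord_73 (by decide) (by rw [Fintype.card_fin]; norm_num)
          (by rw [Fintype.card_fin]; norm_num) (g73.trans (Subgroup.card_dvd_of_le hR))
    · omega
    · omega
    · exact (hle hRH).trans (hRes H hH hS (g19.trans (Subgroup.card_dvd_of_le hRH)))
  rw [hc]
  exact Nat.mul_le_mul hd3 hgoal

variable {G : Type u} [Group G] [Finite G] {T : Subgroup G}

theorem core_4_10 (hRes : Res9 F) (hF : Fintype.card F = 4)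
    (hL : ∀ {n : ℕ} {R : Subgroup (GL (Fin n) F)} {k r : ℕ}, Big 2 2 k r 1 → 10 ≤ n → n < 2 * k → r ∣ Nat.card R →
      ActsIrreducibly (matrixSet R) → specialLinear (Fin n) F ≤ R ∨ Cfsg.Agent.H851.Rl.Out k R)
    {X Y : Subgroup G} (h : Fac T X Y) (e : T ≃* Matrix.ProjectiveSpecialLinearGroup (Fin 10) F)
    (hX : 41 ∣ Nat.card (pg e X)) :
    ∃ (e' : T ≃* Matrix.ProjectiveSpecialLinearGroup (Fin 10) F) (v : Fin 10 → F), Pt (pg e' Y) v := by
  have hF2 : Fintype.card F = 2 ^ 2 := by rw [hF]; norm_num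
  have hP10 : Ppd (Fintype.card F) 10 41 := by rw [hF]; exact ppd4_10
  have hP7 : Ppd (Fintype.card F) 7 43 := by rw [hF]; exact ppd4_7
  have hP9 : Ppd (Fintype.card F) 9 19 := by rw [hF]; exact ppd4_9
  have hP9' : Ppd (Fintype.card F) 9 73 := by rw [hF]; exact ppd4_9'
  have hP10' : Ppd (Fintype.card F) (Fintype.card (Fin 10)) 41 := by rw [Fintype.card_fin]; exact hP10
  have hOX : Cfsg.Agent.H851.Rl.Out 10 (pg e X) := by
    rcases hL big41 le_rfl (by norm_num) hX (irr_of hP10' hX) with h3 | h3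
    · exact absurd h3 (not_sl_le e h.not_le_left)
    · exact h3
  have hY7 : 43 ∣ Nat.card (pg e Y) := by
    rcases side' h (by norm_num) e Nat.prime_two hF2 hP7 (by norm_num) (by norm_num) (by norm_num) with h4 | h4
    · exact absurd h4.1 (prime_out10 hOX hP7 (by norm_num) (by decide) (by norm_num) (by norm_num) (by norm_num))
    · exact h4.1
  have hY9 : 19 ∣ Nat.card (pg e Y) := by
    rcases side' h (by norm_num) e Nat.prime_two hF2 hP9 (by norm_num) (by norm_num) (by norm_num) with h4 | h4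
    · exact absurd h4.1 (prime_out10 hOX hP9 (by norm_num) (by decide) (by norm_num) (by norm_num) (by norm_num))
    · exact h4.1
  have hY9' : 73 ∣ Nat.card (pg e Y) := by
    rcases side' h (by norm_num) e Nat.prime_two hF2 hP9' (by norm_num) (by norm_num) (by norm_num) with h4 | h4
    · exact absurd h4.1 (prime_out10 hOX hP9' (by norm_num) (by decide) (by norm_num) (by norm_num) (by norm_num))
    · exact h4.1
  have hred : ¬ ActsIrreducibly (matrixSet (pg e Y)) := by
    intro hirr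
    rcases hL big43 le_rfl (by norm_num) hY7 hirr with h3 | h3
    · exact not_sl_le e h.not_le_right h3
    · rcases h3 with ⟨s, K, hs, hs1, hs2, -, -⟩ | ⟨h, -⟩ | ⟨h, -⟩ | ⟨-, σ, g, hg, hR⟩
      · rw [Fintype.card_fin] at hs1
        rw [Nat.prime_dvd_prime_iff_eq hs (by norm_num)] at hs2
        subst hs2
        revert hs1
        norm_num
      · exact absurd h (by decide)
      · exact absurd h (by decide)
      · exact H803.Rl.u_not2 hg hF2 (by norm_num) ord_73 (by decide) (by rw [Fintype.card_fin]; norm_num)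
          (by rw [Fintype.card_fin]; norm_num) (hY9'.trans (Subgroup.card_dvd_of_le hR))
  obtain ⟨e₁, v, hv, hfix, hcard⟩ := point_of_red (m := 9) (by norm_num) e Y hP9 hY9 hred
  refine ⟨e₁, v, ?_⟩
  by_contra hno
  obtain ⟨S, hS, hS1, hS2⟩ := block_card hv (Cfsg.Agent.H851.Rl.pg_le e₁ Y) hfix hno
  have hkS : ∀ {r : ℕ}, r.Prime → ¬ r ∣ Fintype.card F → r ∣ Nat.card (pg e Y) → r ∣ Nat.card S := by
    intro r hr hrF hrY
    have := hS2 r 1 hr hrF (by rw [hcard, pow_one]; exact hrY)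
    rwa [pow_one] at this
  have hSc := card_block9 hRes hF hS (hkS hP9.prime hP9.ndvd hY9) (hkS hP7.prime hP7.ndvd hY7) (hkS hP9'.prime hP9'.ndvd hY9')
  have h1 := H815.Rl.card_le_pg h (by norm_num) e Nat.prime_two hF2
  have h2 := H294.Rl.sl_ge (F := F) (n := 10) (by norm_num)
  have h3 := card_out10 hF hOX
  have h4 : Nat.card (pg e Y) ≤ 4 ^ 9 * (3 * 235146240) := by
    rw [← hcard Y, ← hF]
    exact hS1.trans (Nat.mul_le_mul_left _ hSc)
  rw [hF] at h2
  have h5 : 2 * 2 * Nat.card (pg e X) * Nat.card (pg e Y) ≤ 2 * 2 * 4 ^ 56 * (4 ^ 9 * (3 * 235146240)) :=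
    Nat.mul_le_mul (Nat.mul_le_mul_left _ h3) h4
  have h6 : 4 ^ (10 ^ 2 - 1) ≤ 2 * (2 * 2 * 4 ^ 56 * (4 ^ 9 * (3 * 235146240))) :=
    h2.trans (Nat.mul_le_mul_left _ (h1.trans h5))
  revert h6
  norm_num

/-- **PSL-16d**, given the residual subgroups -/
theorem red_4_10_of (hRes : Res9 F) (hP : H659.CovCore.S5948Stmt.{0}) {X Y : Subgroup G} (h : Fac T X Y)
    (e : T ≃* Matrix.ProjectiveSpecialLinearGroup (Fin 10) F) (hq : Fintype.card F = 4) :
    ∃ (e' : T ≃* Matrix.ProjectiveSpecialLinearGroup (Fin 10) F) (v : Fin 10 → F), Pt (pg e' X) v ∨ Pt (pg e' Y) v := by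
  have hF2 : Fintype.card F = 2 ^ 2 := by rw [hq]; norm_num
  have hP10 : Ppd (Fintype.card F) 10 41 := by rw [hq]; exact ppd4_10
  have hL : ∀ {n : ℕ} {R : Subgroup (GL (Fin n) F)} {k r : ℕ}, Big 2 2 k r 1 → 10 ≤ n → n < 2 * k → r ∣ Nat.card R →
      ActsIrreducibly (matrixSet R) → specialLinear (Fin n) F ≤ R ∨ Cfsg.Agent.H851.Rl.Out k R := by
    intro n R k r hB h10 hn hR hirr
    by_cases h1 : specialLinear (Fin n) F ≤ R
    · exact Or.inl h1
    · right
      exact list10 (gpps_of hP) hF2 hB (by rwa [Fintype.card_fin]) (by rwa [Fintype.card_fin])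
        (by rwa [pow_one]) hirr h1
  rcases side' h (by norm_num) e Nat.prime_two hF2 hP10 (by norm_num) (by norm_num) (by norm_num) with h4 | h4
  · obtain ⟨e', v, h5⟩ := core_4_10 hRes hq hL h e h4.1
    exact ⟨e', v, Or.inr h5⟩
  · obtain ⟨e', v, h5⟩ := core_4_10 hRes hq hL h.symm e h4.1
    exact ⟨e', v, Or.inl h5⟩

end

end Cfsg.Agent.H848.Rl
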